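import Cfsg.Agent.Lib.Helper5.SUAsch.Defs2
import Cfsg.Agent.Lib.Helper5.SUAsch.Bridge

set_option autoImplicit false

namespace Cfsg.Agent.Lib.Helper72.SURows

open Cfsg Cfsg.Geo Matrix Cfsg.Agent.Lib.Helper5.SUAsch
open scoped Kronecker MatrixGroups

variable {ι : Type} [Fintype ι] [DecidableEq ι] {F : Type*} [Field F] {n q : ℕ}

/-- A11 -/
theorem le_GU_of_odd [Fintype F] (hF : Fintype.card F = q ^ 2) (hn : 1 ≤ n) {r : ℕ} (hr : r.Prime)
    (hrq : ¬ r ∣ q - 1) (R : Subgroup (GL (Fin n) F)) (hexp : ∀ x ∈ R, x ^ r = 1)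
    (hsim : R ≤ similarityGroup (hermForm n F q)) : R ≤ GU n F q := by
  intro x hx
  obtain ⟨c, hc⟩ := hsim hx
  rw [mem_GU_iff]
  have hq : 2 ≤ q := by
    have h1 : 1 < Fintype.card F := Fintype.one_lt_card
    rw [hF] at h1
    by_contra hlt
    have : q = 0 ∨ q = 1 := by omega
    rcases this with rfl | rfl <;> simp at h1
  -- the basis vector
  set e0 : Fin n → F := Pi.single ⟨0, by omega⟩ 1 with he0
  have hee : hermForm n F q e0 e0 = 1 := by
    unfold hermForm
    rw [Finset.sum_eq_single (⟨0, by omega⟩ : Fin n)]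
    · simp [he0]
    · intro b _ hb
      simp [he0, Pi.single_eq_of_ne hb]
    · intro h; exact absurd (Finset.mem_univ _) h
  have hcq : (c : F) ^ q = c := by
    have h1 := hc e0 e0
    rw [hee, mul_one] at h1
    rw [← h1]
    exact Cfsg.Agent.Lib.Helper5.hermForm_self_pow hF _
  have hcq1 : c ^ (q - 1) = 1 := by
    apply Units.ext
    rw [Units.val_pow_eq_pow_val, Units.val_one]
    have h2 : (c : F) ^ (q - 1) * c = 1 * c := by
      rw [← pow_succ, one_mul, Nat.sub_add_cancel (by omega)]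
      exact hcq
    exact mul_right_cancel₀ c.ne_zero h2
  have hpow : ∀ k : ℕ, ∀ u v, hermForm n F q (((x ^ k : GL (Fin n) F) : Matrix (Fin n) (Fin n) F) *ᵥ u)
      (((x ^ k : GL (Fin n) F) : Matrix (Fin n) (Fin n) F) *ᵥ v) = (c : F) ^ k * hermForm n F q u v := by
    intro k
    induction k with
    | zero => intro u v; simp
    | succ k ih =>
      intro u v
      rw [pow_succ, Units.val_mul, ← Matrix.mulVec_mulVec, ← Matrix.mulVec_mulVec, ih, hc, pow_succ,
        mul_assoc]
  have hcr : c ^ r = 1 := by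
    apply Units.ext
    rw [Units.val_pow_eq_pow_val, Units.val_one]
    have h1 := hpow r e0 e0
    rw [hexp x hx, hee, mul_one] at h1
    simp only [Units.val_one, Matrix.one_mulVec] at h1
    rw [← h1, hee]
  have hcop : Nat.Coprime r (q - 1) := (Nat.Prime.coprime_iff_not_dvd hr).2 hrq
  have hc1 : c = 1 := by
    have := pow_gcd_eq_one.2 ⟨hcr, hcq1⟩
    rw [Nat.Coprime.gcd_eq_one hcop, pow_one] at this
    exact this
  intro u v
  rw [hc, hc1, Units.val_one, one_mul]

end Cfsg.Agent.Lib.Helper72.SURows
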