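import Cfsg.Agent.Lib.Helper5.SUAsch.Defs2
import Cfsg.Agent.Lib.Helper5.SUAsch.Bridge

set_option autoImplicit false

namespace Cfsg.Agent.Lib.Helper72.SURows

open Cfsg Cfsg.Geo Matrix Cfsg.Agent.Lib.Helper5.SUAsch
open scoped Kronecker MatrixGroups

variable {ι : Type} [Fintype ι] [DecidableEq ι] {F : Type*} [Field F] {n q : ℕ}

/-- A6 -/
theorem arith6 [Fintype F] (hF : Fintype.card F = q ^ 2) {z p e : ℕ}
    (h : IsMinimalFieldFor z p e F) :
    p.Prime ∧ CharP F p ∧ ∃ e' : ℕ, e = 2 * e' ∧ 0 < e' ∧ q = p ^ e' ∧ z ∣ p ^ e - 1 ∧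
      ¬ z ∣ q - 1 ∧ ∀ d : ℕ, 0 < d → z ∣ p ^ d - 1 → e ≤ d := by
  obtain ⟨hp, hch, hcard, hz, hmin⟩ := h
  have hpe : p ^ e = q ^ 2 := by rw [← hcard, hF]
  have hq : q ∣ p ^ e := by rw [hpe]; exact Dvd.intro_left (q ^ 1) (by ring)
  obtain ⟨j, -, hj⟩ := (Nat.dvd_prime_pow hp).1 hq
  have he : e = 2 * j := by
    have : p ^ e = p ^ (2 * j) := by rw [hpe, hj]; ring
    exact Nat.pow_right_injective hp.two_le this
  have hj0 : 0 < j := by
    rcases Nat.eq_zero_or_pos j with h0 | h0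
    · exfalso
      have h1 : 1 < Fintype.card F := Fintype.one_lt_card
      rw [hF, hj, h0] at h1
      simp at h1
    · exact h0
  refine ⟨hp, hch, j, he, hj0, hj, hz, ?_, ?_⟩
  · rw [hj]
    exact hmin j hj0 (by omega)
  · intro d hd hzd
    by_contra hlt
    exact hmin d hd (by omega) hzd

end Cfsg.Agent.Lib.Helper72.SURows
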