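import Cfsg.Agent.Lib.Helper5.SUAsch.Defs2
import Cfsg.Agent.Lib.Helper5.SUAsch.Bridge

set_option autoImplicit false

namespace Cfsg.Agent.Lib.Helper72.SURows

open Cfsg Cfsg.Geo Matrix Cfsg.Agent.Lib.Helper5.SUAsch
open scoped Kronecker MatrixGroups

variable {ι : Type} [Fintype ι] [DecidableEq ι] {F : Type*} [Field F] {n q : ℕ}

/-- an element of a field subalgebra killing a non-zero vector is zero -/
theorem field_eq_zero_of_mulVec {r : ℕ} (K : Subalgebra F (Matrix ι ι F))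
    (hK : IsFieldSubalgebra r K) {d : Matrix ι ι F} (hd : d ∈ K) {x : ι → F} (hx : x ≠ 0)
    (h : d *ᵥ x = 0) : d = 0 := by
  by_contra hd0
  obtain ⟨y, hy, hdy⟩ := hK.inv d hd hd0
  have hyd : y * d = 1 := by rw [hK.comm y hy _ hd]; exact hdy
  apply hx
  have h4 : (y * d) *ᵥ x = x := by rw [hyd, Matrix.one_mulVec]
  rw [← h4, ← Matrix.mulVec_mulVec, h, Matrix.mulVec_zero]

/-- TVc -/
theorem tv_not_mem_field (hι : 3 ≤ Fintype.card ι) {r : ℕ} (hr : r.Prime)
    (K : Subalgebra F (Matrix ι ι F)) (hK : IsFieldSubalgebra r K) (g : GL ι F) (hg : IsTv g) :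
    g ∉ subalgebraNormalizer K := by
  intro hmem
  have hne : Nonempty ι := Fintype.card_pos_iff.1 (by omega)
  obtain ⟨φ, a, ha, hφ, hgx⟩ := hg
  have h2 : ((g⁻¹ : GL ι F) : Matrix ι ι F) * (g : Matrix ι ι F) = 1 := by
    rw [← Units.val_mul, inv_mul_cancel, Units.val_one]
  -- `g` commutes with `K`
  have hcomm : ∀ k ∈ K, (g : Matrix ι ι F) * k = k * (g : Matrix ι ι F) := by
    intro k hk
    set k' := (g : Matrix ι ι F) * k * ((g⁻¹ : GL ι F) : Matrix ι ι F) with hk'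
    have hk'K : k' ∈ K := (hmem k).1 hk
    have hrel : k' * (g : Matrix ι ι F) = (g : Matrix ι ι F) * k := by
      rw [hk', mul_assoc, h2, mul_one]
    let L : (ι → F) →ₗ[F] F × F := φ.prod (φ.comp (Matrix.toLin' k))
    have hker : LinearMap.ker L ≠ ⊥ := by
      apply LinearMap.ker_ne_bot_of_finrank_lt
      rw [Module.finrank_prod, Module.finrank_self, Module.finrank_fintype_fun_eq_card]
      omega
    obtain ⟨x, hxL, hx0⟩ := Submodule.exists_mem_ne_zero_of_ne_bot hker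
    have hxL' : L x = 0 := hxL
    have hx1 : φ x = 0 := congrArg Prod.fst hxL'
    have hx2 : φ (k *ᵥ x) = 0 := by
      have := congrArg Prod.snd hxL'
      simpa [L] using this
    have h3 : (k - k') *ᵥ x = 0 := by
      have e1 : (k' * (g : Matrix ι ι F)) *ᵥ x = k' *ᵥ x := by
        rw [← Matrix.mulVec_mulVec, hgx, hx1, zero_smul, add_zero]
      have e2 : ((g : Matrix ι ι F) * k) *ᵥ x = k *ᵥ x := by
        rw [← Matrix.mulVec_mulVec, hgx, hx2, zero_smul, add_zero]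
      rw [Matrix.sub_mulVec, ← e1, ← e2, hrel, sub_self]
    have hkk : k - k' = 0 := field_eq_zero_of_mulVec K hK (K.sub_mem hk hk'K) hx0 h3
    rw [← hrel, ← sub_eq_zero.1 hkk]
  -- a vector with `φ x = 1`
  obtain ⟨x0, hx0⟩ : ∃ x, φ x ≠ 0 := by
    by_contra hcon
    push Not at hcon
    exact hφ (LinearMap.ext hcon)
  have hscal : ∀ k ∈ K, ∃ c : F, k = algebraMap F (Matrix ι ι F) c := by
    intro k hk
    have h1 : ((g : Matrix ι ι F) * k) *ᵥ x0 = (k * (g : Matrix ι ι F)) *ᵥ x0 := by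
      rw [hcomm k hk]
    rw [← Matrix.mulVec_mulVec, ← Matrix.mulVec_mulVec, hgx, hgx, Matrix.mulVec_add,
      Matrix.mulVec_smul] at h1
    have h4 : φ (k *ᵥ x0) • a = φ x0 • (k *ᵥ a) := add_left_cancel h1
    refine ⟨(φ x0)⁻¹ * φ (k *ᵥ x0), ?_⟩
    have h5 : k *ᵥ a = ((φ x0)⁻¹ * φ (k *ᵥ x0)) • a := by
      rw [mul_smul, h4, smul_smul, inv_mul_cancel₀ hx0, one_smul]
    have h6 : (k - algebraMap F (Matrix ι ι F) ((φ x0)⁻¹ * φ (k *ᵥ x0))) *ᵥ a = 0 := by
      rw [Matrix.sub_mulVec, h5, Algebra.algebraMap_eq_smul_one, Matrix.smul_mulVec,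
        Matrix.one_mulVec, sub_self]
    exact sub_eq_zero.1 (field_eq_zero_of_mulVec K hK (K.sub_mem hk (K.algebraMap_mem _)) ha h6)
  have hbot : K = ⊥ := by
    rw [eq_bot_iff]
    intro k hk
    obtain ⟨c, hc⟩ := hscal k hk
    rw [Algebra.mem_bot]
    exact ⟨c, hc.symm⟩
  have h1 := hK.finrank_eq
  rw [hbot, Subalgebra.finrank_bot] at h1
  exact hr.one_lt.ne h1

end Cfsg.Agent.Lib.Helper72.SURows
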