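import Cfsg.Agent.Lib.Helper5.SUAsch.Defs2
import Cfsg.Agent.Lib.Helper5.SUAsch.Bridge

set_option autoImplicit false

namespace Cfsg.Agent.Lib.Helper72.SURows

open Cfsg Cfsg.Geo Matrix Cfsg.Agent.Lib.Helper5.SUAsch
open scoped Kronecker MatrixGroups

variable {ι : Type} [Fintype ι] [DecidableEq ι] {F : Type*} [Field F] {n q : ℕ}

/-- `IsTv` is invariant under conjugation -/
theorem isTv_of_conj (P R : GL ι F) (h : IsTv (P * R * P⁻¹)) : IsTv R := by
  obtain ⟨φ, a, ha, hφ, hg⟩ := h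
  have hPi : ((P⁻¹ : GL ι F) : Matrix ι ι F) * (P : Matrix ι ι F) = 1 := by
    rw [← Units.val_mul, inv_mul_cancel, Units.val_one]
  have hPi' : (P : Matrix ι ι F) * ((P⁻¹ : GL ι F) : Matrix ι ι F) = 1 := by
    rw [← Units.val_mul, mul_inv_cancel, Units.val_one]
  refine ⟨φ.comp (Matrix.mulVecLin (P : Matrix ι ι F)), ((P⁻¹ : GL ι F) : Matrix ι ι F) *ᵥ a,
    ?_, ?_, ?_⟩
  · intro h0
    apply ha
    have : ((P : Matrix ι ι F) * ((P⁻¹ : GL ι F) : Matrix ι ι F)) *ᵥ a = 0 := by
      rw [← Matrix.mulVec_mulVec, h0, Matrix.mulVec_zero]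
    rwa [hPi', Matrix.one_mulVec] at this
  · intro h0
    apply hφ
    refine LinearMap.ext fun x => ?_
    have := LinearMap.congr_fun h0 (((P⁻¹ : GL ι F) : Matrix ι ι F) *ᵥ x)
    rw [LinearMap.comp_apply, Matrix.mulVecLin_apply, Matrix.mulVec_mulVec, hPi',
      Matrix.one_mulVec] at this
    exact this
  · intro y
    have h1 := hg ((P : Matrix ι ι F) *ᵥ y)
    rw [Units.val_mul, Units.val_mul, Matrix.mulVec_mulVec, mul_assoc, hPi, mul_one] at h1
    have h2 := congrArg (fun z => ((P⁻¹ : GL ι F) : Matrix ι ι F) *ᵥ z) h1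
    rw [Matrix.mulVec_mulVec, ← mul_assoc, hPi, one_mul, Matrix.mulVec_add, Matrix.mulVec_mulVec,
      hPi, Matrix.one_mulVec, Matrix.mulVec_smul] at h2
    rw [h2]
    rfl

theorem coe_glReindex' {κ : Type} [Fintype κ] [DecidableEq κ] (e : κ ≃ ι) (g : GL κ F) :
    ((glReindex e g : GL ι F) : Matrix ι ι F) = Matrix.reindex e e (g : Matrix κ κ F) := rfl

/-- `IsTv` is invariant under reindexing -/
theorem isTv_of_reindex {κ : Type} [Fintype κ] [DecidableEq κ] (e : κ ≃ ι) (k : GL κ F)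
    (h : IsTv (glReindex e k)) : IsTv k := by
  obtain ⟨φ, a, ha, hφ, hg⟩ := h
  have hmv : ∀ z : κ → F, (k : Matrix κ κ F) *ᵥ z =
      (((glReindex e k : GL ι F) : Matrix ι ι F) *ᵥ (z ∘ e.symm)) ∘ e := by
    intro z
    funext i
    rw [coe_glReindex']
    simp only [Function.comp, Matrix.mulVec, dotProduct, Matrix.reindex_apply,
      Matrix.submatrix_apply, Equiv.symm_apply_apply]
    exact (Equiv.sum_comp e.symm (fun j => (k : Matrix κ κ F) i j * z j)).symm
  refine ⟨φ.comp (LinearMap.funLeft F F e.symm), a ∘ e, ?_, ?_, ?_⟩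
  · intro h0
    apply ha
    funext i
    have := congrFun h0 (e.symm i)
    simpa using this
  · intro h0
    apply hφ
    refine LinearMap.ext fun x => ?_
    have := LinearMap.congr_fun h0 (x ∘ e)
    rw [LinearMap.comp_apply] at this
    have h2 : LinearMap.funLeft F F e.symm (x ∘ e) = x := by
      funext i
      simp [LinearMap.funLeft_apply]
    rw [h2] at this
    exact this
  · intro z
    rw [hmv, hg]
    funext i
    have h3 : LinearMap.funLeft F F e.symm z = z ∘ e.symm := rfl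
    simp [h3]

/-- pure tensors along `e : κ ≃ α × β` -/
def tens {κ α β : Type} (e : κ ≃ α × β) (u : α → F) (v : β → F) : κ → F :=
  fun x => u (e x).1 * v (e x).2

/-- `v ↦ u ⊗ v` -/
def tensR {κ α β : Type} (e : κ ≃ α × β) (u : α → F) : (β → F) →ₗ[F] (κ → F) where
  toFun v := tens e u v
  map_add' v v' := by funext x; simp [tens, mul_add]
  map_smul' c v := by funext x; simp [tens]; ring

/-- `u ↦ u ⊗ v` -/
def tensL {κ α β : Type} (e : κ ≃ α × β) (v : β → F) : (α → F) →ₗ[F] (κ → F) where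
  toFun u := tens e u v
  map_add' u u' := by funext x; simp [tens, add_mul]
  map_smul' c u := by funext x; simp [tens]; ring

theorem tens_single {κ α β : Type} [DecidableEq κ] [DecidableEq α] [DecidableEq β]
    (e : κ ≃ α × β) (x : κ) :
    tens e (Pi.single (e x).1 (1 : F)) (Pi.single (e x).2 (1 : F)) = Pi.single x 1 := by
  funext y
  unfold tens
  by_cases hy : y = x
  · subst hy; simp
  · rw [Pi.single_eq_of_ne hy]
    have : e y ≠ e x := fun h => hy (e.injective h)
    by_cases h1 : (e y).1 = (e x).1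
    · have h2 : (e y).2 ≠ (e x).2 := fun h2 => this (Prod.ext h1 h2)
      rw [Pi.single_eq_of_ne h2, mul_zero]
    · rw [Pi.single_eq_of_ne h1, zero_mul]

/-- a matrix having every vector as an eigenvector is a scalar -/
theorem scalar_of_forall_eigen {α : Type} [Fintype α] [DecidableEq α] (A : Matrix α α F)
    (h : ∀ u : α → F, u ≠ 0 → ∃ c : F, A *ᵥ u = c • u) : ∃ c : F, ∀ u, A *ᵥ u = c • u := by
  obtain ⟨c, hc⟩ := (Matrix.mulVecLin A).exists_eq_smul_id_of_forall_notLinearIndependent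
    fun (v : α → F) => by
      by_cases hv : v = 0
      · simp [hv, linearIndependent_fin2]
      · rw [LinearIndependent.pair_iff' hv]
        push Not
        obtain ⟨c, hc⟩ := h v hv
        exact ⟨c, by rw [Matrix.mulVecLin_apply, hc]⟩
  refine ⟨c, fun u => ?_⟩
  have := LinearMap.congr_fun hc u
  rw [Matrix.mulVecLin_apply] at this
  rw [this]
  rfl

/-- the pure case -/
theorem not_tv_pure {κ α β : Type} [Fintype κ] [DecidableEq κ] [Fintype α] [DecidableEq α]
    [Fintype β] [DecidableEq β] (hα : 2 ≤ Fintype.card α) (hβ : 2 ≤ Fintype.card β)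
    (e : κ ≃ α × β) (M : Matrix κ κ F) (A : Matrix α α F) (B : Matrix β β F)
    (hM : ∀ u v, M *ᵥ tens e u v = tens e (A *ᵥ u) (B *ᵥ v))
    (φ : (κ → F) →ₗ[F] F) (w : κ → F) (hw : w ≠ 0) (hφ : φ ≠ 0)
    (hMx : ∀ x, M *ᵥ x = x + φ x • w) : False := by
  -- every vector is an eigenvector of `A`
  have hA : ∀ u : α → F, u ≠ 0 → ∃ c : F, A *ᵥ u = c • u := by
    intro u hu
    have hker : LinearMap.ker (φ.comp (tensR e u)) ≠ ⊥ := by
      apply LinearMap.ker_ne_bot_of_finrank_lt
      rw [Module.finrank_self, Module.finrank_fintype_fun_eq_card]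
      omega
    obtain ⟨v, hvL, hv0⟩ := Submodule.exists_mem_ne_zero_of_ne_bot hker
    have hv1 : φ (tens e u v) = 0 := hvL
    have h1 : tens e (A *ᵥ u) (B *ᵥ v) = tens e u v := by
      rw [← hM, hMx, hv1, zero_smul, add_zero]
    obtain ⟨j, hj⟩ := Function.ne_iff.1 hv0
    obtain ⟨i0, hi0⟩ := Function.ne_iff.1 hu
    have h2 : ∀ i, (A *ᵥ u) i * (B *ᵥ v) j = u i * v j := by
      intro i
      have := congrFun h1 (e.symm (i, j))
      simpa [tens] using this
    have hB : (B *ᵥ v) j ≠ 0 := by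
      intro h0
      have := h2 i0
      rw [h0, mul_zero] at this
      exact mul_ne_zero hi0 hj this.symm
    refine ⟨v j / (B *ᵥ v) j, ?_⟩
    funext i
    rw [Pi.smul_apply, smul_eq_mul, div_mul_eq_mul_div, eq_div_iff hB, h2 i, mul_comm]
  have hB : ∀ v : β → F, v ≠ 0 → ∃ c : F, B *ᵥ v = c • v := by
    intro v hv
    have hker : LinearMap.ker (φ.comp (tensL e v)) ≠ ⊥ := by
      apply LinearMap.ker_ne_bot_of_finrank_lt
      rw [Module.finrank_self, Module.finrank_fintype_fun_eq_card]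
      omega
    obtain ⟨u, huL, hu0⟩ := Submodule.exists_mem_ne_zero_of_ne_bot hker
    have hu1 : φ (tens e u v) = 0 := huL
    have h1 : tens e (A *ᵥ u) (B *ᵥ v) = tens e u v := by
      rw [← hM, hMx, hu1, zero_smul, add_zero]
    obtain ⟨i, hi⟩ := Function.ne_iff.1 hu0
    obtain ⟨j0, hj0⟩ := Function.ne_iff.1 hv
    have h2 : ∀ j, (A *ᵥ u) i * (B *ᵥ v) j = u i * v j := by
      intro j
      have := congrFun h1 (e.symm (i, j))
      simpa [tens] using this
    have hA' : (A *ᵥ u) i ≠ 0 := by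
      intro h0
      have := h2 j0
      rw [h0, zero_mul] at this
      exact mul_ne_zero hi hj0 this.symm
    refine ⟨u i / (A *ᵥ u) i, ?_⟩
    funext j
    rw [Pi.smul_apply, smul_eq_mul, div_mul_eq_mul_div, eq_div_iff hA', mul_comm, h2 j]
  obtain ⟨α0, hα0⟩ := scalar_of_forall_eigen A hA
  obtain ⟨β0, hβ0⟩ := scalar_of_forall_eigen B hB
  have hs : ∀ x : κ, ((α0 * β0 - 1) • (Pi.single x 1 : κ → F)) = φ (Pi.single x 1) • w := by
    intro x
    have h1 := hM (Pi.single (e x).1 (1 : F)) (Pi.single (e x).2 (1 : F))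
    rw [hα0, hβ0, hMx, tens_single] at h1
    have h2 : tens e (α0 • (Pi.single (e x).1 (1 : F) : α → F))
        (β0 • (Pi.single (e x).2 (1 : F) : β → F)) = (α0 * β0) • (Pi.single x 1 : κ → F) := by
      rw [← tens_single e x]
      funext y
      simp only [tens, Pi.smul_apply, smul_eq_mul]
      ring
    rw [h2] at h1
    rw [sub_smul, one_smul, ← h1, add_sub_cancel_left]
  obtain ⟨x0, hx0⟩ : ∃ x : κ, φ (Pi.single x 1) ≠ 0 := by
    by_contra hcon
    push Not at hcon
    apply hφ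
    apply LinearMap.pi_ext'
    intro i
    ext
    simpa using hcon i
  have hc1 : α0 * β0 - 1 ≠ 0 := by
    intro h0
    have := hs x0
    rw [h0, zero_smul] at this
    rcases smul_eq_zero.1 this.symm with h | h
    · exact hx0 h
    · exact hw h
  have hcard : 1 < Fintype.card κ := by
    rw [Fintype.card_congr e, Fintype.card_prod]
    nlinarith
  obtain ⟨x1, hx1⟩ := Fintype.exists_ne_of_one_lt_card hcard x0
  have hw1 : w x1 = 0 := by
    have := congrFun (hs x0) x1
    rw [Pi.smul_apply, Pi.smul_apply, Pi.single_eq_of_ne hx1, smul_zero, smul_eq_mul] at this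
    rcases mul_eq_zero.1 this.symm with h | h
    · exact absurd h hx0
    · exact h
  have := congrFun (hs x1) x1
  rw [Pi.smul_apply, Pi.smul_apply, Pi.single_eq_same, hw1, smul_zero, smul_eq_mul, mul_one] at this
  exact hc1 this

theorem kronecker_mulVec_tens {a b : ℕ} (A : Matrix (Fin a) (Fin a) F) (B : Matrix (Fin b) (Fin b) F)
    (u : Fin a → F) (v : Fin b → F) :
    (A ⊗ₖ B) *ᵥ tens (Equiv.refl (Fin a × Fin b)) u v =
      tens (Equiv.refl (Fin a × Fin b)) (A *ᵥ u) (B *ᵥ v) := by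
  funext x
  obtain ⟨i, j⟩ := x
  simp only [tens, Matrix.mulVec, dotProduct, Equiv.refl_apply, Matrix.kroneckerMap_apply]
  rw [Fintype.sum_prod_type, Finset.sum_mul_sum]
  refine Finset.sum_congr rfl fun k _ => Finset.sum_congr rfl fun l _ => ?_
  ring

/-- TVd -/
theorem tv_not_mem_tensor {a b : ℕ} (ha : 2 ≤ a) (hb : 2 ≤ b) (e : ι ≃ Fin a × Fin b) (P : GL ι F)
    (g : GL ι F) (hg : IsTv g) : g ∉ tensorProductSubgroup a b e P := by
  rintro ⟨_, ⟨k, hk, rfl⟩, rfl⟩
  have h1 : IsTv (P * glReindex e.symm k * P⁻¹) := hg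
  have h2 : IsTv k := isTv_of_reindex _ _ (isTv_of_conj _ _ h1)
  obtain ⟨A, B, hAB⟩ := hk
  obtain ⟨φ, w, hw, hφ, hx⟩ := h2
  refine not_tv_pure (by simpa using ha) (by simpa using hb) (Equiv.refl (Fin a × Fin b))
    (k : Matrix (Fin a × Fin b) (Fin a × Fin b) F) A B ?_ φ w hw hφ hx
  intro u v
  rw [hAB, kronecker_mulVec_tens]

end Cfsg.Agent.Lib.Helper72.SURows
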