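import Cfsg.Agent.Lib.Helper72.SURows.TVd
import Cfsg.Agent.Lib.Helper73.Asch.D1g

set_option autoImplicit false

namespace Cfsg.Agent.Lib.Helper72.SURows

open Cfsg Cfsg.Geo Matrix Cfsg.Agent.Lib.Helper5.SUAsch
open scoped Kronecker MatrixGroups

variable {ι : Type} [Fintype ι] [DecidableEq ι] {F : Type*} [Field F] {n q : ℕ}

/-- the swap case -/
theorem not_tv_swap {κ α : Type} [Fintype κ] [DecidableEq κ] [Fintype α] [DecidableEq α]
    (hα : 3 ≤ Fintype.card α) (e : κ ≃ α × α) (M : Matrix κ κ F) (A B : Matrix α α F)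
    (hM : ∀ u v, M *ᵥ tens e u v = tens e (A *ᵥ v) (B *ᵥ u))
    (φ : (κ → F) →ₗ[F] F) (w : κ → F) (hMx : ∀ x, M *ᵥ x = x + φ x • w) : False := by
  have hne : Nonempty α := Fintype.card_pos_iff.1 (by omega)
  obtain ⟨i0⟩ := hne
  set u : α → F := Pi.single i0 1 with hu
  let L : (α → F) →ₗ[F] F × F :=
    (φ.comp (tensR e u)).prod ((LinearMap.proj i0).comp (Matrix.mulVecLin A))
  have hker : LinearMap.ker L ≠ ⊥ := by
    apply LinearMap.ker_ne_bot_of_finrank_lt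
    rw [Module.finrank_prod, Module.finrank_self, Module.finrank_fintype_fun_eq_card]
    omega
  obtain ⟨v, hvL, hv0⟩ := Submodule.exists_mem_ne_zero_of_ne_bot hker
  have hvL' : L v = 0 := hvL
  have hv1 : φ (tens e u v) = 0 := congrArg Prod.fst hvL'
  have hv2 : (A *ᵥ v) i0 = 0 := congrArg Prod.snd hvL'
  have h1 : tens e (A *ᵥ v) (B *ᵥ u) = tens e u v := by
    rw [← hM, hMx, hv1, zero_smul, add_zero]
  apply hv0
  funext j
  have := congrFun h1 (e.symm (i0, j))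
  simp only [tens, Equiv.apply_symm_apply, hv2, zero_mul, hu, Pi.single_eq_same, one_mul] at this
  exact this.symm

/-- the index equivalence `(Fin 2 → Fin m) ≃ Fin m × Fin m` -/
def e2 (m : ℕ) : (Fin 2 → Fin m) ≃ Fin m × Fin m := finTwoArrowEquiv (Fin m)

theorem tens_e2 {m : ℕ} (u v : Fin m → F) :
    tens (e2 m) u v = fun x => ∏ i, (![u, v] : Fin 2 → Fin m → F) i (x i) := by
  funext x
  simp [tens, e2, Fin.prod_univ_two]

/-- the two types of elements of the tensor wreath group with two factors -/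
def WType (m : ℕ) (g : Matrix (Fin 2 → Fin m) (Fin 2 → Fin m) F) : Prop :=
  (∃ A B : Matrix (Fin m) (Fin m) F, ∀ u v, g *ᵥ tens (e2 m) u v = tens (e2 m) (A *ᵥ u) (B *ᵥ v)) ∨
  (∃ A B : Matrix (Fin m) (Fin m) F, ∀ u v, g *ᵥ tens (e2 m) u v = tens (e2 m) (A *ᵥ v) (B *ᵥ u))

theorem wType_pure {m : ℕ} (A : Fin 2 → Matrix (Fin m) (Fin m) F)
    (g : Matrix (Fin 2 → Fin m) (Fin 2 → Fin m) F) (hg : ∀ x y, g x y = ∏ i, A i (x i) (y i)) :
    WType m g := by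
  left
  refine ⟨A 0, A 1, fun u v => ?_⟩
  rw [tens_e2, Cfsg.Agent.Lib.Helper73.Asch.pure_mulVec A g hg, tens_e2]
  funext x
  simp [Fin.prod_univ_two]

theorem perm_two_cases : ∀ σ : Equiv.Perm (Fin 2),
    (σ 0 = 0 ∧ σ 1 = 1) ∨ (σ 0 = 1 ∧ σ 1 = 0) := by
  decide

theorem wType_perm {m : ℕ} (σ : Equiv.Perm (Fin 2))
    (g : Matrix (Fin 2 → Fin m) (Fin 2 → Fin m) F)
    (hg : ∀ x y, g x y = if y = x ∘ σ then 1 else 0) : WType m g := by
  have hσ : (σ 0 = 0 ∧ σ 1 = 1) ∨ (σ 0 = 1 ∧ σ 1 = 0) := perm_two_cases σ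
  rcases hσ with ⟨h0, h1⟩ | ⟨h0, h1⟩
  · left
    refine ⟨1, 1, fun u v => ?_⟩
    rw [Cfsg.Agent.Lib.Helper73.Asch.perm_mulVec σ g hg]
    funext x
    simp [tens, e2, h0, h1]
  · right
    refine ⟨1, 1, fun u v => ?_⟩
    rw [Cfsg.Agent.Lib.Helper73.Asch.perm_mulVec σ g hg]
    funext x
    simp [tens, e2, h0, h1, mul_comm]

theorem wType_mul {m : ℕ} {g h : Matrix (Fin 2 → Fin m) (Fin 2 → Fin m) F} (hg : WType m g)
    (hh : WType m h) : WType m (g * h) := by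
  rcases hg with ⟨A, B, hAB⟩ | ⟨A, B, hAB⟩ <;> rcases hh with ⟨C, D, hCD⟩ | ⟨C, D, hCD⟩
  · left
    refine ⟨A * C, B * D, fun u v => ?_⟩
    rw [← Matrix.mulVec_mulVec, hCD, hAB, Matrix.mulVec_mulVec, Matrix.mulVec_mulVec]
  · right
    refine ⟨A * C, B * D, fun u v => ?_⟩
    rw [← Matrix.mulVec_mulVec, hCD, hAB, Matrix.mulVec_mulVec, Matrix.mulVec_mulVec]
  · right
    refine ⟨A * D, B * C, fun u v => ?_⟩
    rw [← Matrix.mulVec_mulVec, hCD, hAB, Matrix.mulVec_mulVec, Matrix.mulVec_mulVec]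
  · left
    refine ⟨A * D, B * C, fun u v => ?_⟩
    rw [← Matrix.mulVec_mulVec, hCD, hAB, Matrix.mulVec_mulVec, Matrix.mulVec_mulVec]

theorem wType_of_mem {m : ℕ} {g : GL (Fin 2 → Fin m) F} (hg : g ∈ tensorWreathStandard m 2 F) :
    WType m (g : Matrix (Fin 2 → Fin m) (Fin 2 → Fin m) F) := by
  unfold tensorWreathStandard at hg
  induction hg using Subgroup.closure_induction'' with
  | mem x hx =>
    rcases hx with ⟨gs, hgs⟩ | ⟨σ, hσ⟩
    · exact wType_pure (fun i => (gs i : Matrix (Fin m) (Fin m) F)) _ hgs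
    · exact wType_perm σ _ hσ
  | inv_mem x hx =>
    rcases hx with ⟨gs, hgs⟩ | ⟨σ, hσ⟩
    · left
      refine ⟨(((gs 0)⁻¹ : GL (Fin m) F) : Matrix (Fin m) (Fin m) F),
        (((gs 1)⁻¹ : GL (Fin m) F) : Matrix (Fin m) (Fin m) F), fun u v => ?_⟩
      apply Cfsg.Agent.Lib.Helper73.Asch.inv_mulVec_eq
      rw [tens_e2, Cfsg.Agent.Lib.Helper73.Asch.pure_mulVec
        (fun i => (gs i : Matrix (Fin m) (Fin m) F)) _ hgs, tens_e2]
      funext y
      simp only [Fin.prod_univ_two, Matrix.cons_val_zero, Matrix.cons_val_one]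
      rw [Matrix.mulVec_mulVec, Matrix.mulVec_mulVec, ← Units.val_mul, ← Units.val_mul,
        mul_inv_cancel, mul_inv_cancel, Units.val_one, Matrix.one_mulVec, Matrix.one_mulVec]
    · have hσ' : (σ 0 = 0 ∧ σ 1 = 1) ∨ (σ 0 = 1 ∧ σ 1 = 0) := perm_two_cases σ
      rcases hσ' with ⟨h0, h1⟩ | ⟨h0, h1⟩
      · left
        refine ⟨1, 1, fun u v => ?_⟩
        apply Cfsg.Agent.Lib.Helper73.Asch.inv_mulVec_eq
        rw [Cfsg.Agent.Lib.Helper73.Asch.perm_mulVec σ _ hσ]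
        funext y
        simp [tens, e2, h0, h1]
      · right
        refine ⟨1, 1, fun u v => ?_⟩
        apply Cfsg.Agent.Lib.Helper73.Asch.inv_mulVec_eq
        rw [Cfsg.Agent.Lib.Helper73.Asch.perm_mulVec σ _ hσ]
        funext y
        simp [tens, e2, h0, h1, mul_comm]
  | one =>
    left
    exact ⟨1, 1, fun u v => by simp⟩
  | mul x y _ _ hx hy =>
    rw [Units.val_mul]
    exact wType_mul hx hy

/-- TVg -/
theorem tv_not_mem_wreath_two {m : ℕ} (hm : 3 ≤ m) (e : ι ≃ (Fin 2 → Fin m)) (P : GL ι F)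
    (g : GL ι F) (hg : IsTv g) : g ∉ tensorWreathSubgroup m 2 e P := by
  rintro ⟨_, ⟨k, hk, rfl⟩, rfl⟩
  have h1 : IsTv (P * glReindex e.symm k * P⁻¹) := hg
  have h2 : IsTv k := isTv_of_reindex _ _ (isTv_of_conj _ _ h1)
  obtain ⟨φ, w, hw, hφ, hx⟩ := h2
  rcases wType_of_mem hk with ⟨A, B, hAB⟩ | ⟨A, B, hAB⟩
  · exact not_tv_pure (by simp; omega) (by simp; omega) (e2 m) _ A B hAB φ w hw hφ hx
  · exact not_tv_swap (by simpa using hm) (e2 m) _ A B hAB φ w hx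

end Cfsg.Agent.Lib.Helper72.SURows
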