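import Cfsg.Agent.Lib.Helper5.SUAsch.Defs2
import Cfsg.Agent.Lib.Helper5.SUAsch.Bridge
import Cfsg.Agent.Lib.Helper5.SURows.Geo

set_option autoImplicit false

namespace Cfsg.Agent.Lib.Helper72.SURows

open Cfsg Cfsg.Geo Matrix Cfsg.Agent.Lib.Helper5.SUAsch
open scoped Kronecker MatrixGroups

variable {ι : Type} [Fintype ι] [DecidableEq ι] {F : Type*} [Field F] {n q : ℕ}

/-- similarities normalise `SUg` -/
theorem conj_mem_SUg_of_sim {x g : GL (Fin n) F} (hx : x ∈ similarityGroup (hermForm n F q))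
    (hg : g ∈ SUg n F q) : x * g * x⁻¹ ∈ SUg n F q := by
  obtain ⟨c, hc⟩ := hx
  rw [mem_SUg_iff] at hg ⊢
  have hxx : (x : Matrix (Fin n) (Fin n) F) * ((x⁻¹ : GL (Fin n) F) : Matrix (Fin n) (Fin n) F) = 1 := by
    rw [← Units.val_mul, mul_inv_cancel, Units.val_one]
  constructor
  · intro u v
    rw [Units.val_mul, Units.val_mul, ← Matrix.mulVec_mulVec, ← Matrix.mulVec_mulVec,
      ← Matrix.mulVec_mulVec, ← Matrix.mulVec_mulVec, hc, hg.1, ← hc, Matrix.mulVec_mulVec,
      Matrix.mulVec_mulVec, hxx, Matrix.one_mulVec, Matrix.one_mulVec]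
  · rw [Units.val_mul, Units.val_mul, Matrix.det_mul, Matrix.det_mul, hg.2, mul_one,
      ← Matrix.det_mul, hxx, Matrix.det_one]

/-- scalars are central -/
theorem scalars_le_centralizer (S : Subgroup (GL ι F)) :
    scalars ι F ≤ Subgroup.centralizer (S : Set (GL ι F)) := by
  intro z hz
  rw [mem_scalars_iff] at hz
  obtain ⟨c, hc⟩ := hz
  rw [Subgroup.mem_centralizer_iff]
  intro g _
  apply Units.ext
  rw [Units.val_mul, Units.val_mul, hc]
  simp

/-- a non-trivial element of `SUg` of order `p` -/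
theorem exists_order_p [Fintype F] (hF : Fintype.card F = q ^ 2) (hn : 3 ≤ n) {p : ℕ}
    (hp : CharP F p) : ∃ τ ∈ SUg n F q, τ ≠ 1 ∧ τ ^ p = 1 := by
  obtain ⟨v, hv0, hv⟩ := Cfsg.Agent.Lib.Helper5.exists_isotropic_ne_zero (n := n) hF hn
  obtain ⟨c, hc0, hc⟩ := Cfsg.Agent.Lib.Helper5.exists_skew_q hF
  obtain ⟨g, hg, hgx⟩ := exists_tv hF v c hv hc
  refine ⟨g, hg, ?_, ?_⟩
  · rintro rfl
    obtain ⟨z, hz⟩ := Cfsg.Agent.Lib.Helper5.exists_hermForm_ne_zero hF hv0
    have h1 := hgx z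
    rw [Units.val_one, Matrix.one_mulVec] at h1
    have h2 : (c * hermForm n F q z v) • v = 0 := by
      have := h1.symm
      rwa [add_eq_left] at this
    rcases smul_eq_zero.1 h2 with h | h
    · exact mul_ne_zero hc0 hz h
    · exact hv0 h
  · have hpow : ∀ k : ℕ, ∀ x, ((g ^ k : GL (Fin n) F) : Matrix (Fin n) (Fin n) F) *ᵥ x =
        x + ((k : F) * (c * hermForm n F q x v)) • v := by
      intro k
      induction k with
      | zero => intro x; simp
      | succ k ih =>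
        intro x
        rw [pow_succ, Units.val_mul, ← Matrix.mulVec_mulVec, hgx, ih,
          Cfsg.Agent.Lib.Helper13.hermForm_add_left, Cfsg.Agent.Lib.Helper13.hermForm_smul_left, hv,
          mul_zero, add_zero, add_assoc, ← add_smul]
        congr 2
        push_cast
        ring
    apply Units.ext
    rw [Units.val_one]
    apply Matrix.toLin'.injective
    refine LinearMap.ext fun x => ?_
    rw [Matrix.toLin'_apply, Matrix.toLin'_apply, hpow, CharP.cast_eq_zero F p, zero_mul, zero_smul,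
      add_zero, Matrix.one_mulVec]

/-- D1f -/
theorem su_not_le_normalizer [Fintype F] (hF : Fintype.card F = q ^ 2) (hn : 3 ≤ n)
    (h32 : ¬ (n = 3 ∧ q = 2)) {r p : ℕ} (hp : CharP F p) (hr : r.Prime) (hrp : r ≠ p)
    (R : Subgroup (GL (Fin n) F)) (hR : IsPGroup r R)
    (hirr : ActsAbsolutelyIrreducibly (matrixSet R))
    (hsim : R ≤ similarityGroup (hermForm n F q)) :
    ¬ SUg n F q ≤ subgroupNormalizer R := by
  intro hle
  have hpp : p.Prime := CharP.char_is_prime F p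
  have hconj : ∀ g ∈ SUg n F q, ∀ x ∈ R, g * x * g⁻¹ ∈ R := fun g hg x hx =>
    (Subgroup.mem_normalizer_iff.1 (hle hg) x).1 hx
  -- `T = R ⊓ SUg` is scalar
  have hT : R ⊓ SUg n F q ≤ scalars (Fin n) F := by
    rcases SUg_normal hF hn h32 (R ⊓ SUg n F q) inf_le_right (fun g hg x hx =>
      Subgroup.mem_inf.2 ⟨hconj g hg x hx.1,
        (SUg n F q).mul_mem ((SUg n F q).mul_mem hg hx.2) ((SUg n F q).inv_mem hg)⟩) with h | h
    · exact h
    · exfalso
      obtain ⟨τ, hτ, hτ1, hτp⟩ := exists_order_p (n := n) hF hn hp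
      have hτR : τ ∈ R := by
        rw [← h] at hτ
        exact hτ.1
      obtain ⟨k, hk⟩ := hR ⟨τ, hτR⟩
      have hk' : τ ^ r ^ k = 1 := by simpa using congrArg Subtype.val hk
      have hcop : Nat.Coprime p (r ^ k) :=
        Nat.Coprime.pow_right _ ((Nat.coprime_primes hpp hr).2 (Ne.symm hrp))
      have hord : orderOf τ = 1 :=
        Nat.eq_one_of_dvd_coprimes hcop (orderOf_dvd_of_pow_eq_one hτp)
          (orderOf_dvd_of_pow_eq_one hk')
      exact hτ1 (orderOf_eq_one_iff.1 hord)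
  have hSR : ⁅SUg n F q, R⁆ ≤ scalars (Fin n) F := by
    rw [Subgroup.commutator_le]
    intro g hg x hx
    apply hT
    rw [commutatorElement_def]
    refine Subgroup.mem_inf.2 ⟨R.mul_mem (hconj g hg x hx) (R.inv_mem hx), ?_⟩
    have h1 : x * g⁻¹ * x⁻¹ ∈ SUg n F q := conj_mem_SUg_of_sim (hsim hx) ((SUg n F q).inv_mem hg)
    have h2 := (SUg n F q).mul_mem hg h1
    have h3 : g * (x * g⁻¹ * x⁻¹) = g * x * g⁻¹ * x⁻¹ := by group
    rwa [h3] at h2
  have h1 : ⁅⁅SUg n F q, R⁆, SUg n F q⁆ = ⊥ := by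
    rw [Subgroup.commutator_eq_bot_iff_le_centralizer]
    exact hSR.trans (scalars_le_centralizer _)
  have h2 : ⁅⁅R, SUg n F q⁆, SUg n F q⁆ = ⊥ := by
    rw [Subgroup.commutator_comm R]
    exact h1
  have h3 := Subgroup.commutator_commutator_eq_bot_of_rotate h1 h2
  rw [SUg_perfect hF hn h32, Subgroup.commutator_eq_bot_iff_le_centralizer] at h3
  have hscal : R ≤ scalars (Fin n) F := by
    intro x hx
    apply Cfsg.Agent.Lib.Helper5.SURows.scalar_of_commute hF hn
    intro g hg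
    exact (Subgroup.mem_centralizer_iff.1 (h3 hg)) x hx
  obtain ⟨c, hc⟩ := hirr.2 (Matrix.single (⟨0, by omega⟩ : Fin n) (⟨1, by omega⟩ : Fin n) 1) (by
    rintro _ ⟨x, hx, rfl⟩
    obtain ⟨c, hc⟩ := (mem_scalars_iff x).1 (hscal hx)
    show Matrix.single _ _ 1 * (x : Matrix (Fin n) (Fin n) F) =
      (x : Matrix (Fin n) (Fin n) F) * Matrix.single _ _ 1
    rw [hc]; simp)
  have := congrFun (congrFun hc (⟨0, by omega⟩ : Fin n)) (⟨1, by omega⟩ : Fin n)
  simp at this

end Cfsg.Agent.Lib.Helper72.SURows
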